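import Mathlib.GroupTheory.Sylow
import Mathlib.GroupTheory.Perm.Cycle.Type
import Mathlib.GroupTheory.Subgroup.Centralizer
import Mathlib.GroupTheory.SpecificGroups.Alternating
import Mathlib.GroupTheory.Solvable
import Mathlib.GroupTheory.Transfer
import Cfsg.Agent.H57.SpecSemi

set_option autoImplicit false

namespace Cfsg.Agent.H57

open Subgroup

/-- fixed points of conjugation by `x` of prime order `q` on a normalised subgroup `V`. -/
theorem card_modEq_centralizer {G : Type*} [Group G] [Finite G] (q : ℕ) [Fact q.Prime] (x : G)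
    (hx : x ^ q = 1) (V : Subgroup G) (hV : x ∈ normalizer (V : Set G)) :
    Nat.card V ≡ Nat.card (V ⊓ centralizer {x} : Subgroup G) [MOD q] := by
  let X := zpowers x
  have hX : X ≤ normalizer (V : Set G) := by rw [zpowers_le]; exact hV
  have hXp : IsPGroup q X := by
    intro ⟨y, hy⟩
    obtain ⟨k, rfl⟩ := mem_zpowers_iff.1 hy
    refine ⟨1, Subtype.ext ?_⟩
    show (x ^ k) ^ q ^ 1 = 1
    rw [pow_one, ← zpow_natCast, ← zpow_mul, mul_comm, zpow_mul, zpow_natCast, hx, one_zpow]
  let φ : X →* MulAut V := (V.normalizerMonoidHom).comp (Subgroup.inclusion hX)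
  let _inst : MulAction X V := MulAction.compHom V φ
  have h1 := hXp.card_modEq_card_fixedPoints V
  have hsm : ∀ (y : X) (v : V), ((y • v : V) : G) = y * v * (y : G)⁻¹ := fun y v => rfl
  have h2 : Nat.card (MulAction.fixedPoints X V) =
      Nat.card (V ⊓ centralizer {x} : Subgroup G) := by
    apply Nat.card_congr
    refine
      { toFun := fun v => ⟨v.1, v.1.2, ?_⟩
        invFun := fun v => ⟨⟨v.1, v.2.1⟩, ?_⟩
        left_inv := fun v => rfl
        right_inv := fun v => rfl }
    · show (v.1 : G) ∈ centralizer {x}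
      rw [mem_centralizer_iff]
      intro h hh
      rw [Set.mem_singleton_iff] at hh
      subst hh
      have := congrArg Subtype.val (v.2 ⟨h, mem_zpowers h⟩)
      rw [hsm] at this
      exact mul_inv_eq_iff_eq_mul.1 this
    · intro y
      apply Subtype.ext
      rw [hsm]
      obtain ⟨y, hy⟩ := y
      obtain ⟨k, rfl⟩ := mem_zpowers_iff.1 hy
      have hc : x * v.1 = v.1 * x := mem_centralizer_iff.1 v.2.2 x rfl
      have hc' : Commute x v.1 := hc
      have := (hc'.zpow_left k).eq
      show x ^ k * v.1 * (x ^ k)⁻¹ = v.1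
      rw [this, mul_inv_cancel_right]
  rw [h2] at h1
  exact h1

/-- an element of prime order `q` normalising a `p`-subgroup `V` of order `p ^ a`, where `q` does not
divide `p ^ i - 1` for `1 ≤ i ≤ a`, centralises it. -/
theorem centralizes_of_not_dvd {G : Type*} [Group G] [Finite G] (p q : ℕ) (hp : p.Prime) (hq : q.Prime)
    (hpq : p ≠ q) (x : G) (hx : x ^ q = 1) (V : Subgroup G) (hV : x ∈ normalizer (V : Set G)) (a : ℕ)
    (ha : Nat.card V = p ^ a) (hd : ∀ i, 1 ≤ i → i ≤ a → ¬ q ∣ p ^ i - 1) :
    ∀ v ∈ V, x * v = v * x := by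
  have : Fact q.Prime := ⟨hq⟩
  have h1 := card_modEq_centralizer q x hx V hV
  have h2 : Nat.card (V ⊓ centralizer {x} : Subgroup G) ∣ p ^ a := by
    rw [← ha]; exact Subgroup.card_dvd_of_le inf_le_left
  obtain ⟨b, hb, hb2⟩ := (Nat.dvd_prime_pow hp).1 h2
  have hba : b = a := by
    by_contra hne
    have hlt : b < a := lt_of_le_of_ne hb hne
    rw [ha, hb2] at h1
    apply hd (a - b) (by omega) (by omega)
    have h3 : p ^ b ≡ p ^ a [MOD q] := h1.symm
    have h4 : q ∣ p ^ a - p ^ b := (Nat.modEq_iff_dvd' (Nat.pow_le_pow_right hp.pos hb)).1 h3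
    have h5 : p ^ a - p ^ b = p ^ b * (p ^ (a - b) - 1) := by
      rw [Nat.mul_sub, ← pow_add, mul_one, Nat.add_sub_cancel' hb]
    rw [h5] at h4
    exact (Nat.Coprime.dvd_of_dvd_mul_left
      (Nat.Coprime.pow_right _ ((Nat.coprime_primes hq hp).2 hpq.symm)) h4)
  have h6 : V ⊓ centralizer {x} = V := by
    apply Subgroup.eq_of_le_of_card_ge inf_le_left
    rw [hb2, ha, hba]
  intro v hv
  rw [← h6] at hv
  exact mem_centralizer_iff.1 hv.2 x rfl

theorem exists_orderOf_mul {G : Type*} [Group G] (p q : ℕ) (hp : p.Prime) (hq : q.Prime) (hpq : p ≠ q)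
    (x y : G) (hx : orderOf x = q) (hy : orderOf y = p) (hc : x * y = y * x) :
    orderOf (x * y) = q * p := by
  have : Commute x y := hc
  rw [this.orderOf_mul_eq_mul_orderOf_of_coprime, hx, hy]
  rw [hx, hy]
  exact (Nat.coprime_primes hq hp).2 hpq.symm

/-- Frattini-type production of elements of order `p q`. -/
theorem exists_orderOf_mul_of_frattini {G : Type*} [Group G] [Finite G] (p q : ℕ) (hp : p.Prime)
    (hq : q.Prime) (hpq : p ≠ q) (H : Subgroup G) [H.Normal] (hpH : p ∣ Nat.card H)
    (hpH2 : ¬ p ^ 2 ∣ Nat.card H) (hqH : ¬ q ∣ Nat.card H) (hqG : q ∣ Nat.card G)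
    (hqp : ¬ q ∣ p - 1) : ∃ g : G, orderOf g = q * p := by
  have : Fact p.Prime := ⟨hp⟩
  have : Fact q.Prime := ⟨hq⟩
  obtain ⟨P⟩ : Nonempty (Sylow p H) := inferInstance
  set Q : Subgroup G := (P : Subgroup H).map H.subtype with hQ
  have hfr : normalizer (Q : Set G) ⊔ H = ⊤ := by
    have := Sylow.normalizer_sup_eq_top P
    exact this
  have hcP : Nat.card (P : Subgroup H) = p := by
    rw [Sylow.card_eq_multiplicity]
    have h1 : 1 ≤ (Nat.card H).factorization p :=
      (hp.dvd_iff_one_le_factorization Nat.card_pos.ne').1 hpH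
    have h2 : ¬ 2 ≤ (Nat.card H).factorization p := by
      intro h
      exact hpH2 ((hp.pow_dvd_iff_le_factorization Nat.card_pos.ne').2 h)
    have h3 : (Nat.card H).factorization p = 1 := by omega
    rw [h3, pow_one]
  have hcQ : Nat.card Q = p := by
    rw [← hcP]
    exact (Nat.card_congr (Subgroup.equivMapOfInjective _ _ (Subgroup.subtype_injective _)).toEquiv).symm
  have hqN : q ∣ Nat.card (normalizer (Q : Set G)) := by
    have h1 : H.relIndex ⊤ = H.relIndex (normalizer (Q : Set G)) := by
      rw [← hfr, relIndex_sup_right]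
    have h2 : Nat.card G = Nat.card H * H.index := (Subgroup.card_mul_index H).symm
    rw [relIndex_top_right] at h1
    have h3 : q ∣ H.index := by
      rw [h2] at hqG
      exact (hq.dvd_mul.1 hqG).resolve_left hqH
    rw [h1] at h3
    exact h3.trans (Subgroup.relIndex_dvd_card _ _)
  obtain ⟨x, hx⟩ := exists_prime_orderOf_dvd_card' q hqN
  have hx' : orderOf (x : G) = q := by rw [← hx]; exact orderOf_coe x
  have hcent := centralizes_of_not_dvd p q hp hq hpq (x : G) (by rw [← hx', pow_orderOf_eq_one]) Q x.2 1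
    (by rw [hcQ, pow_one]) (fun i h1 h2 => by
      have : i = 1 := by omega
      rw [this, pow_one]; exact hqp)
  obtain ⟨y, hy⟩ := exists_prime_orderOf_dvd_card' (G := Q) p (by rw [hcQ])
  have hy' : orderOf (y : G) = p := by rw [← hy]; exact orderOf_coe y
  exact ⟨(x : G) * (y : G), exists_orderOf_mul p q hp hq hpq (x : G) (y : G) hx' hy' (hcent y y.2)⟩

/-- solvable groups: production of elements of order `p q`. -/
theorem exists_orderOf_mul_of_solvable (n : ℕ) : ∀ {G : Type*} [Group G] [Finite G] (_ : Nat.card G ≤ n)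
    (_ : Group.IsSolvable G) (p q : ℕ) (_ : p.Prime) (_ : q.Prime) (_ : p ≠ q) (_ : p ∣ Nat.card G)
    (_ : q ∣ Nat.card G)
    (_ : ∀ i, 1 ≤ i → i ≤ (Nat.card G).factorization p → ¬ q ∣ p ^ i - 1)
    (_ : ∀ i, 1 ≤ i → i ≤ (Nat.card G).factorization q → ¬ p ∣ q ^ i - 1),
    ∃ g : G, orderOf g = p * q := by
  induction n with
  | zero =>
    intro G _ _ hc
    have := Nat.card_pos (α := G)
    omega
  | succ n ih =>
    intro G _ _ hc hs p q hp hq hpq hpG hqG h1 h2
    have : Fact p.Prime := ⟨hp⟩
    have : Fact q.Prime := ⟨hq⟩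
    -- a normal subgroup of prime exponent
    have hnt : (⊤ : Subgroup G) ≠ ⊥ := by
      intro h
      have h0 : Nat.card G = 1 := by
        rw [← Subgroup.card_top (G := G), h, Subgroup.card_bot]
      rw [h0] at hpG
      exact hp.one_lt.ne' (Nat.dvd_one.1 hpG)
    have hs' : Group.IsSolvable (⊤ : Subgroup G) := inferInstance
    obtain ⟨V, r, hVn, hV1, -, hr, hVe, hVc⟩ := exists_normal_prime_exponent (⊤ : Subgroup G) hnt hs'
    have : Fact r.Prime := ⟨hr⟩
    have hVr : IsPGroup r V := fun v => ⟨1, Subtype.ext (by simpa using hVe v v.2)⟩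
    obtain ⟨a, ha⟩ := IsPGroup.iff_card.1 hVr
    have hVcard1 : 1 < Nat.card V := (Subgroup.one_lt_card_iff_ne_bot V).2 hV1
    have hmul : Nat.card V * Nat.card (G ⧸ V) = Nat.card G := by
      rw [mul_comm]; exact (Subgroup.card_eq_card_quotient_mul_card_subgroup V).symm
    have hlt : Nat.card (G ⧸ V) ≤ n := by
      have : 0 < Nat.card (G ⧸ V) := Nat.card_pos
      nlinarith
    have hsq : Group.IsSolvable (G ⧸ V) := inferInstance
    have hfac : ∀ s, (Nat.card (G ⧸ V)).factorization s ≤ (Nat.card G).factorization s := by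
      intro s
      exact (Nat.factorization_le_iff_dvd Nat.card_pos.ne' Nat.card_pos.ne').2
        (hmul ▸ Dvd.intro_left _ rfl) s
    by_cases hd : p ∣ Nat.card (G ⧸ V) ∧ q ∣ Nat.card (G ⧸ V)
    · obtain ⟨g, hg⟩ := ih hlt hsq p q hp hq hpq hd.1 hd.2
        (fun i hi1 hi2 => h1 i hi1 (hi2.trans (hfac p)))
        (fun i hi1 hi2 => h2 i hi1 (hi2.trans (hfac q)))
      obtain ⟨x, rfl⟩ := QuotientGroup.mk_surjective g
      have hdvd : p * q ∣ orderOf x := by
        rw [← hg]; exact orderOf_map_dvd (QuotientGroup.mk' V) x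
      obtain ⟨k, hk⟩ := hdvd
      have hk0 : k ≠ 0 := by
        rintro rfl
        rw [mul_zero] at hk
        exact (orderOf_pos x).ne' hk
      refine ⟨x ^ k, ?_⟩
      rw [orderOf_pow_of_dvd hk0 (by rw [hk]; exact Dvd.intro_left _ rfl), hk,
        Nat.mul_div_cancel _ (Nat.pos_of_ne_zero hk0)]
    · -- r is p or q and V is a Sylow subgroup
      have main : ∀ p q : ℕ, p.Prime → q.Prime → p ≠ q → p ∣ Nat.card G → q ∣ Nat.card G →
          (∀ i, 1 ≤ i → i ≤ (Nat.card G).factorization p → ¬ q ∣ p ^ i - 1) →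
          ¬ p ∣ Nat.card (G ⧸ V) → ∃ g : G, orderOf g = q * p := by
        intro p q hp hq hpq hpG hqG h1 hnd
        have : Fact p.Prime := ⟨hp⟩
        have : Fact q.Prime := ⟨hq⟩
        have hpV : p ∣ Nat.card V := by
          rw [← hmul] at hpG
          exact (hp.dvd_mul.1 hpG).resolve_right hnd
        have hrp : r = p := by
          rw [ha] at hpV
          exact ((Nat.prime_dvd_prime_iff_eq hp hr).1 (hp.dvd_of_dvd_pow hpV)).symm
        subst hrp
        obtain ⟨x, hx⟩ := exists_prime_orderOf_dvd_card' q hqG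
        obtain ⟨y, hy⟩ := exists_prime_orderOf_dvd_card' r hpV
        have hy' : orderOf (y : G) = r := by rw [← hy]; exact orderOf_coe y
        have hfa : a ≤ (Nat.card G).factorization r := by
          rw [← hr.pow_dvd_iff_le_factorization Nat.card_pos.ne', ← ha]
          exact Subgroup.card_subgroup_dvd_card V
        have hcent := centralizes_of_not_dvd r q hr hq hpq x (by rw [← hx, pow_orderOf_eq_one]) V
          (by rw [Subgroup.normalizer_eq_top_iff.2 hVn]; trivial) a ha
          (fun i hi1 hi2 => h1 i hi1 (hi2.trans hfa))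
        exact ⟨x * y, exists_orderOf_mul r q hr hq hpq x y hx hy' (hcent y y.2)⟩
      by_cases hpd : p ∣ Nat.card (G ⧸ V)
      · have hqd : ¬ q ∣ Nat.card (G ⧸ V) := fun h => hd ⟨hpd, h⟩
        exact main q p hq hp hpq.symm hqG hpG h2 hqd
      · obtain ⟨g, hg⟩ := main p q hp hq hpq hpG hqG h1 hpd
        exact ⟨g, by rw [hg, mul_comm]⟩

/-- element orders in symmetric groups -/
theorem prime_dvd_multiset_lcm (p : ℕ) (hp : p.Prime) (s : Multiset ℕ) (h : p ∣ s.lcm) :
    ∃ a ∈ s, p ∣ a := by
  induction s using Multiset.induction with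
  | empty =>
    rw [Multiset.lcm_zero] at h
    exact absurd (Nat.dvd_one.1 h) hp.one_lt.ne'
  | cons a s ih =>
    rw [Multiset.lcm_cons] at h
    have h' : p ∣ a * s.lcm := h.trans (Nat.lcm_dvd_mul a s.lcm)
    rcases hp.dvd_mul.1 h' with h | h
    · exact ⟨a, Multiset.mem_cons_self a s, h⟩
    · obtain ⟨b, hb, hpb⟩ := ih h
      exact ⟨b, Multiset.mem_cons_of_mem hb, hpb⟩

theorem add_le_of_orderOf_perm {n : ℕ} (σ : Equiv.Perm (Fin n)) (p q : ℕ) (hp : p.Prime) (hq : q.Prime)
    (hpq : p ≠ q) (h : orderOf σ = p * q) : p + q ≤ n := by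
  have hsum : σ.cycleType.sum ≤ n := by
    have := Equiv.Perm.sum_cycleType_le σ
    simpa using this
  have hl : σ.cycleType.lcm = p * q := by rw [Equiv.Perm.lcm_cycleType, h]
  obtain ⟨a, ha, hpa⟩ := prime_dvd_multiset_lcm p hp _ (by rw [hl]; exact dvd_mul_right _ _)
  obtain ⟨b, hb, hqb⟩ := prime_dvd_multiset_lcm q hq _ (by rw [hl]; exact dvd_mul_left _ _)
  have ha1 : 1 < a := Equiv.Perm.one_lt_of_mem_cycleType ha
  have hb1 : 1 < b := Equiv.Perm.one_lt_of_mem_cycleType hb
  by_cases hab : a = b
  · subst hab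
    have h1 : p * q ∣ a := Nat.Coprime.mul_dvd_of_dvd_of_dvd ((Nat.coprime_primes hp hq).2 hpq) hpa hqb
    have h2 : p * q ≤ a := Nat.le_of_dvd (by omega) h1
    have h3 : a ≤ σ.cycleType.sum := Multiset.single_le_sum (fun _ _ => Nat.zero_le _) a ha
    have h4 : p + q ≤ p * q := by
      have := hp.two_le
      have := hq.two_le
      nlinarith
    omega
  · have h1 : p ≤ a := Nat.le_of_dvd (by omega) hpa
    have h2 : q ≤ b := Nat.le_of_dvd (by omega) hqb
    have h3 : a + b ≤ σ.cycleType.sum := by
      obtain ⟨t, ht⟩ := Multiset.exists_cons_of_mem ha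
      rw [ht] at hb ⊢
      have hbt : b ∈ t := by
        rcases Multiset.mem_cons.1 hb with h | h
        · exact absurd h.symm hab
        · exact h
      rw [Multiset.sum_cons]
      have : b ≤ t.sum := Multiset.single_le_sum (fun _ _ => Nat.zero_le _) b hbt
      omega
    omega

/-- element orders in alternating groups -/
theorem add_le_of_orderOf_alternating {n : ℕ} (σ : alternatingGroup (Fin n)) (p q : ℕ) (hp : p.Prime)
    (hq : q.Prime) (hpq : p ≠ q) (h : orderOf σ = p * q) : p + q ≤ n := by
  apply add_le_of_orderOf_perm (σ : Equiv.Perm (Fin n)) p q hp hq hpq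
  rw [← h]; exact orderOf_coe σ

/-- the largest normal `p'`-subgroup, in existence form -/
theorem exists_largest_normal_prime_to {G : Type*} [Group G] [Finite G] (p : ℕ) (hp : p.Prime) :
    ∃ O : Subgroup G, O.Normal ∧ ¬ p ∣ Nat.card O ∧
      ∀ L : Subgroup G, L.Normal → ¬ p ∣ Nat.card L → L ≤ O := by
  obtain ⟨M, hM⟩ := (Set.toFinite {N : Subgroup G | N.Normal ∧ ¬ p ∣ Nat.card N}).exists_maximal
    ⟨⊥, (inferInstance : (⊥ : Subgroup G).Normal), by
      rw [Subgroup.card_bot]; exact hp.one_lt.ne' ∘ Nat.dvd_one.1⟩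
  refine ⟨M, hM.1.1, hM.1.2, fun L hL hLp => ?_⟩
  have := hM.1.1
  have h1 : L ⊔ M ∈ {N : Subgroup G | N.Normal ∧ ¬ p ∣ Nat.card N} := by
    refine ⟨inferInstance, fun h => ?_⟩
    have h2 : Nat.card M * M.relIndex (L ⊔ M) = Nat.card (L ⊔ M : Subgroup G) := by
      rw [← Subgroup.relIndex_bot_left, ← Subgroup.relIndex_bot_left]
      exact Subgroup.relIndex_mul_relIndex _ _ _ bot_le le_sup_right
    rw [← h2, relIndex_sup_right] at h
    rcases hp.dvd_mul.1 h with h | h
    · exact hM.1.2 h
    · exact hLp (h.trans (Subgroup.relIndex_dvd_card _ _))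
  exact le_sup_left.trans (hM.2 h1 le_sup_right)

/-- Given a prime `p` exactly dividing `|G|`, there is a simple section `H/N` of order divisible
by `p`, with `H`, `N` normal, `p ∤ |N|`, `p ∤ |G/H|`. -/
theorem exists_simple_section {G : Type*} [Group G] [Finite G] (p : ℕ) (hp : p.Prime)
    (hpG : p ∣ Nat.card G) (hpG2 : ¬ p ^ 2 ∣ Nat.card G) :
    ∃ (N H : Subgroup G) (_ : N.Normal), H.Normal ∧ N < H ∧ IsSimpleGroup (↥H ⧸ N.subgroupOf H) ∧
      ¬ p ∣ Nat.card N ∧ p ∣ Nat.card (↥H ⧸ N.subgroupOf H) := by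
  have : Fact p.Prime := ⟨hp⟩
  obtain ⟨N, hN, hNp, hNmax⟩ := exists_largest_normal_prime_to (G := G) p hp
  obtain ⟨P⟩ : Nonempty (Sylow p G) := inferInstance
  have hcP : Nat.card (P : Subgroup G) = p := by
    rw [Sylow.card_eq_multiplicity]
    have h1 : 1 ≤ (Nat.card G).factorization p :=
      (hp.dvd_iff_one_le_factorization Nat.card_pos.ne').1 hpG
    have h2 : ¬ 2 ≤ (Nat.card G).factorization p := by
      intro h
      exact hpG2 ((hp.pow_dvd_iff_le_factorization Nat.card_pos.ne').2 h)
    have h3 : (Nat.card G).factorization p = 1 := by omega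
    rw [h3, pow_one]
  set H : Subgroup G := normalClosure (P : Set G) ⊔ N with hH
  have hHn : H.Normal := inferInstance
  have hPH : (P : Subgroup G) ≤ H := le_trans Subgroup.le_normalClosure le_sup_left
  have hNH : N ≤ H := le_sup_right
  have hpH : p ∣ Nat.card H := by
    have := Subgroup.card_dvd_of_le hPH
    rwa [hcP] at this
  have hpH2 : ¬ p ^ 2 ∣ Nat.card H := fun h => hpG2 (h.trans (Subgroup.card_subgroup_dvd_card H))
  have hcN : Nat.card (N.subgroupOf H) = Nat.card N :=
    Nat.card_congr (Subgroup.subgroupOfEquivOfLe hNH).toEquiv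
  have hmul : Nat.card H = Nat.card (↥H ⧸ N.subgroupOf H) * Nat.card N := by
    rw [← hcN]; exact Subgroup.card_eq_card_quotient_mul_card_subgroup _
  have hpq : p ∣ Nat.card (↥H ⧸ N.subgroupOf H) := by
    rw [hmul] at hpH
    exact (hp.dvd_mul.1 hpH).resolve_right hNp
  refine ⟨N, H, hN, hHn, lt_of_le_of_ne hNH ?_, ?_, hNp, hpq⟩
  · intro h; rw [h] at hNp; exact hNp hpH
  · have hnt : Nontrivial (↥H ⧸ N.subgroupOf H) := by
      apply Finite.one_lt_card_iff_nontrivial.1
      exact lt_of_lt_of_le hp.one_lt (Nat.le_of_dvd Nat.card_pos hpq)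
    refine { exists_pair_ne := hnt.exists_pair_ne, eq_bot_or_eq_top_of_normal := fun K hK => ?_ }
    set L : Subgroup H := K.comap (QuotientGroup.mk' (N.subgroupOf H)) with hL
    have hLn : L.Normal := hK.comap _
    have hNL : N.subgroupOf H ≤ L := by
      intro x hx
      rw [hL, Subgroup.mem_comap]
      have h1 : QuotientGroup.mk' (N.subgroupOf H) x = 1 := (QuotientGroup.eq_one_iff x).2 hx
      rw [h1]
      exact K.one_mem
    have hKL : K = L.map (QuotientGroup.mk' (N.subgroupOf H)) := by
      rw [hL, Subgroup.map_comap_eq_self_of_surjective (QuotientGroup.mk'_surjective _)]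
    by_cases hpL : p ∣ Nat.card L
    · -- L contains all Sylow p-subgroups
      right
      have hLtop : L = ⊤ := by
        -- first, L contains some Sylow subgroup of H
        have hcard1 : ∀ S : Subgroup H, Nat.card S = p → S ≤ L := by
          obtain ⟨y, hy⟩ := exists_prime_orderOf_dvd_card' p hpL
          have hy' : orderOf (y : H) = p := by rw [← hy]; exact orderOf_coe y
          have hfac : (Nat.card H).factorization p = 1 := by
            have h1 : 1 ≤ (Nat.card H).factorization p :=
              (hp.dvd_iff_one_le_factorization Nat.card_pos.ne').1 hpH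
            have h2 : ¬ 2 ≤ (Nat.card H).factorization p := by
              intro h
              exact hpH2 ((hp.pow_dvd_iff_le_factorization Nat.card_pos.ne').2 h)
            omega
          intro S hS
          let S1 : Sylow p H := Sylow.ofCard S (by rw [hS, hfac, pow_one])
          let S2 : Sylow p H := Sylow.ofCard (zpowers (y : H))
            (by rw [Nat.card_zpowers, hy', hfac, pow_one])
          obtain ⟨h, hh⟩ := MulAction.exists_smul_eq H S2 S1
          have h1 : ((h • S2 : Sylow p H) : Subgroup H) = S1 := by rw [hh]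
          rw [Sylow.smul_def, Sylow.pointwise_smul_def] at h1
          intro s hs
          have h2 : s ∈ ((S1 : Sylow p H) : Subgroup H) := hs
          rw [← h1] at h2
          obtain ⟨z, hz, rfl⟩ := h2
          have hz' : z ∈ zpowers (y : H) := hz
          apply hLn.conj_mem
          obtain ⟨k, rfl⟩ := mem_zpowers_iff.1 hz'
          exact L.zpow_mem y.2 k
        -- so L.map subtype contains all conjugates of P and N
        have h3 : H ≤ L.map H.subtype := by
          have hsup : ∀ T : Subgroup G, normalClosure (P : Set G) ≤ T → N ≤ T → H ≤ T :=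
            fun T h1 h2 => sup_le h1 h2
          apply hsup
          · have key : ∀ x ∈ Group.conjugatesOfSet (P : Set G), x ∈ L.map H.subtype := by
              intro x hx
              obtain ⟨y, hy, hxy⟩ := Group.mem_conjugatesOfSet_iff.1 hx
              obtain ⟨g, hg⟩ := isConj_iff.1 hxy
              -- the conjugate subgroup
              let Q : Subgroup G := (P : Subgroup G).map (MulAut.conj g).toMonoidHom
              have hQH : Q ≤ H := by
                rintro _ ⟨z, hz, rfl⟩
                exact hHn.conj_mem z (hPH hz) g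
              have hcQ : Nat.card (Q.subgroupOf H) = p := by
                rw [Nat.card_congr (Subgroup.subgroupOfEquivOfLe hQH).toEquiv, ← hcP]
                exact (Nat.card_congr (Subgroup.equivMapOfInjective _ _
                  (MulAut.conj g).injective).toEquiv).symm
              have hxQ : x ∈ Q := ⟨y, hy, hg⟩
              exact ⟨⟨x, hQH hxQ⟩, hcard1 _ hcQ hxQ, rfl⟩
            rw [normalClosure, closure_le]
            exact key
          · intro x hx
            exact ⟨⟨x, hNH hx⟩, hNL hx, rfl⟩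
        rw [eq_top_iff]
        intro x _
        obtain ⟨y, hy, hxy⟩ := h3 x.2
        have : y = x := Subtype.ext hxy
        rw [← this]; exact hy
      rw [hKL, hLtop, Subgroup.map_top_of_surjective _ (QuotientGroup.mk'_surjective _)]
    · left
      -- L ≤ N
      obtain ⟨O, hO, hOp, hOmax⟩ := exists_largest_normal_prime_to (G := H) p hp
      have hOchar : O.Characteristic := by
        rw [characteristic_iff_map_le]
        intro φ
        apply hOmax
        · exact hO.map _ φ.surjective
        · rwa [← Nat.card_congr (Subgroup.equivMapOfInjective O _ φ.injective).toEquiv]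
      have hOG : (O.map H.subtype).Normal := ConjAct.normal_of_characteristic_of_normal
      have hON : O.map H.subtype ≤ N := by
        apply hNmax _ hOG
        rwa [← Nat.card_congr (Subgroup.equivMapOfInjective O _ (Subgroup.subtype_injective _)).toEquiv]
      have hLO : L ≤ O := hOmax L hLn hpL
      rw [hKL, Subgroup.map_eq_bot_iff, QuotientGroup.ker_mk']
      intro x hx
      exact hON ⟨x, hLO hx, rfl⟩

end Cfsg.Agent.H57
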