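import Mathlib.NumberTheory.Bertrand

set_option autoImplicit false

namespace Cfsg.Agent.H57

section Real

open Real

/-- variant of `Bertrand.real_main_inequality` with one more factor `2 x`. -/
theorem real_main_inequality_two {x : ℝ} (x_large : (512 : ℝ) ≤ x) :
    x * (2 * x) * (2 * x) ^ √(2 * x) * 4 ^ (2 * x / 3) ≤ 4 ^ x := by
  let f : ℝ → ℝ := fun x => log x + (log 2 + log x) + √(2 * x) * log (2 * x) - log 4 / 3 * x
  have hf' : ∀ x, 0 < x → 0 < x * (2 * x) * (2 * x) ^ √(2 * x) / 4 ^ (x / 3) := fun x h =>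
    div_pos (mul_pos (mul_pos h (mul_pos two_pos h)) (rpow_pos_of_pos (mul_pos two_pos h) _))
      (rpow_pos_of_pos four_pos _)
  have hf : ∀ x, 0 < x → f x = log (x * (2 * x) * (2 * x) ^ √(2 * x) / 4 ^ (x / 3)) := by
    intro x h5
    have h6 := mul_pos (zero_lt_two' ℝ) h5
    have h7 := rpow_pos_of_pos h6 (√(2 * x))
    have h8 : log 2 + log x = log (2 * x) := (log_mul two_ne_zero h5.ne').symm
    show log x + (log 2 + log x) + √(2 * x) * log (2 * x) - log 4 / 3 * x = _
    rw [h8]
    rw [log_div (mul_pos (mul_pos h5 h6) h7).ne' (rpow_pos_of_pos four_pos _).ne',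
      log_mul (mul_pos h5 h6).ne' h7.ne', log_mul h5.ne' h6.ne',
      log_rpow h6, log_rpow zero_lt_four]
    ring
  have h5 : 0 < x := lt_of_lt_of_le (by norm_num1) x_large
  rw [← div_le_one (rpow_pos_of_pos four_pos x), ← div_div_eq_mul_div, ← rpow_sub four_pos, ←
    mul_div 2 x, mul_div_left_comm, ← mul_one_sub, (by norm_num1 : (1 : ℝ) - 2 / 3 = 1 / 3),
    mul_one_div, ← log_nonpos_iff (hf' x h5).le, ← hf x h5]
  have h : ConcaveOn ℝ (Set.Ioi 0.5) f := by
    apply ConcaveOn.sub
    · apply ConcaveOn.add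
      · apply ConcaveOn.add
        · exact strictConcaveOn_log_Ioi.concaveOn.subset
            (Set.Ioi_subset_Ioi (by norm_num)) (convex_Ioi 0.5)
        · exact (concaveOn_const (log 2) (convex_Ioi (0.5 : ℝ))).add
            (strictConcaveOn_log_Ioi.concaveOn.subset
              (Set.Ioi_subset_Ioi (by norm_num)) (convex_Ioi 0.5))
      convert!
        ((strictConcaveOn_sqrt_mul_log_Ioi.concaveOn.comp_linearMap ((2 : ℝ) • LinearMap.id)))
        using 1
      ext x
      simp only [Set.mem_Ioi, Set.mem_preimage, LinearMap.smul_apply,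
        LinearMap.id_coe, id_eq, smul_eq_mul]
      rw [← mul_lt_mul_iff_right₀ (two_pos)]
      norm_num1
      rfl
    apply ConvexOn.smul
    · refine div_nonneg (log_nonneg (by norm_num1)) (by norm_num1)
    · exact convexOn_id (convex_Ioi (0.5 : ℝ))
  suffices ∃ x1 x2, 0.5 < x1 ∧ x1 < x2 ∧ x2 ≤ x ∧ 0 ≤ f x1 ∧ f x2 ≤ 0 by
    obtain ⟨x1, x2, h1, h2, h0, h3, h4⟩ := this
    exact (h.right_le_of_le_left'' h1 ((h1.trans h2).trans_le h0) h2 h0 (h4.trans h3)).trans h4
  refine ⟨18, 512, by norm_num1, by norm_num1, x_large, ?_, ?_⟩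
  · have : √(2 * 18 : ℝ) = 6 := (sqrt_eq_iff_mul_self_eq_of_pos (by norm_num1)).mpr (by norm_num1)
    rw [hf _ (by norm_num1), log_nonneg_iff (by positivity), this, one_le_div (by norm_num1)]
    norm_num1
  · have : √(2 * 512) = 32 :=
      (sqrt_eq_iff_mul_self_eq_of_pos (by norm_num1)).mpr (by norm_num1)
    rw [hf _ (by norm_num1), log_nonpos_iff (hf' _ (by norm_num1)).le, this,
        div_le_one (by positivity)]
    conv in 512 * (2 * 512) => equals 2 ^ 19 => norm_num1
    conv in 2 * 512 => equals 2 ^ 10 => norm_num1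
    conv in 32 => rw [← Nat.cast_ofNat]
    rw [rpow_natCast, ← pow_mul, ← pow_add]
    conv in 4 => equals 2 ^ (2 : ℝ) => rw [rpow_two]; norm_num1
    rw [← rpow_mul, ← rpow_natCast]
    on_goal 1 => apply rpow_le_rpow_of_exponent_le
    all_goals norm_num1

end Real

open Nat in
theorem main_inequality_two {n : ℕ} (n_large : 512 ≤ n) :
    n * (2 * n) * (2 * n) ^ sqrt (2 * n) * 4 ^ (2 * n / 3) ≤ 4 ^ n := by
  rw [← @cast_le ℝ]
  simp only [cast_mul, cast_pow, ← Real.rpow_natCast, cast_ofNat]
  refine _root_.trans ?_ (real_main_inequality_two (by exact_mod_cast n_large))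
  gcongr
  · have n2_pos : 0 < 2 * n := by positivity
    exact mod_cast n2_pos
  · exact_mod_cast Real.nat_sqrt_le_real_sqrt
  · norm_num1
  · exact cast_div_le.trans (by norm_cast)

open Nat in
/-- upper bound of the central binomial coefficient if there is at most one prime in `(n, 2n]`. -/
theorem centralBinom_le_of_one_prime (n : ℕ) (n_large : 2 < n) (q : ℕ) (_hq : q.Prime) (hq2 : q ≤ 2 * n)
    (hqn : n < q)
    (no_prime : ∀ p : ℕ, p.Prime → n < p → p ≤ 2 * n → p = q) :
    centralBinom n ≤ (2 * n) * ((2 * n) ^ sqrt (2 * n) * 4 ^ (2 * n / 3)) := by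
  have n_pos : 0 < n := (Nat.zero_le _).trans_lt n_large
  have n2_pos : 1 ≤ 2 * n := mul_pos (zero_lt_two' ℕ) n_pos
  let f x := x ^ n.centralBinom.factorization x
  -- the whole product
  have hwhole : centralBinom n = f q * ∏ p ∈ Finset.range (2 * n / 3 + 1), f p := by
    rw [← n.prod_pow_factorization_centralBinom]
    have hqr : q ∈ Finset.range (2 * n + 1) := by rw [Finset.mem_range]; omega
    rw [← Finset.mul_prod_erase _ _ hqr]
    congr 1
    symm
    apply Finset.prod_subset
    · intro x hx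
      rw [Finset.mem_range] at hx
      rw [Finset.mem_erase, Finset.mem_range]
      omega
    intro x hx h2x
    rw [Finset.mem_erase, Finset.mem_range, Nat.lt_succ_iff] at hx
    rw [Finset.mem_range, Nat.lt_succ_iff] at h2x
    rw [not_le, div_lt_iff_lt_mul three_pos, mul_comm x] at h2x
    show x ^ n.centralBinom.factorization x = 1
    by_cases hxp : x.Prime
    · by_cases hxn : n < x
      · exact absurd (no_prime x hxp hxn hx.2) hx.1
      · push Not at hxn
        rw [factorization_centralBinom_of_two_mul_self_lt_three_mul n_large hxn h2x, Nat.pow_zero]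
    · rw [factorization_eq_zero_of_not_prime n.centralBinom hxp, Nat.pow_zero]
  have hfq : f q ≤ 2 * n := pow_factorization_choose_le (mul_pos two_pos n_pos)
  rw [hwhole]
  apply mul_le_mul' hfq
  let S := {p ∈ Finset.range (2 * n / 3 + 1) | Nat.Prime p}
  have : ∏ x ∈ S, f x = ∏ x ∈ Finset.range (2 * n / 3 + 1), f x := by
    refine Finset.prod_filter_of_ne fun p _ h => ?_
    contrapose h; dsimp only [f]
    rw [factorization_eq_zero_of_not_prime n.centralBinom h, _root_.pow_zero]
  rw [← this, ← Finset.prod_filter_mul_prod_filter_not S (· ≤ sqrt (2 * n))]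
  apply mul_le_mul'
  · refine (Finset.prod_le_prod' fun p _ => (?_ : f p ≤ 2 * n)).trans ?_
    · exact pow_factorization_choose_le (mul_pos two_pos n_pos)
    have : (Finset.Icc 1 (sqrt (2 * n))).card = sqrt (2 * n) := by rw [card_Icc, Nat.add_sub_cancel]
    rw [Finset.prod_const]
    refine pow_right_mono₀ n2_pos ((Finset.card_le_card fun x hx => ?_).trans this.le)
    obtain ⟨h1, h2⟩ := Finset.mem_filter.1 hx
    exact Finset.mem_Icc.mpr ⟨(Finset.mem_filter.1 h1).2.one_lt.le, h2⟩
  · refine le_trans ?_ (primorial_le_four_pow (2 * n / 3))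
    refine (Finset.prod_le_prod' fun p hp => (?_ : f p ≤ p)).trans ?_
    · obtain ⟨h1, h2⟩ := Finset.mem_filter.1 hp
      refine (pow_right_mono₀ (Finset.mem_filter.1 h1).2.one_lt.le ?_).trans (pow_one p).le
      exact Nat.factorization_choose_le_one (sqrt_lt'.mp <| not_le.1 h2)
    refine Finset.prod_le_prod_of_subset_of_one_le' (Finset.filter_subset _ _) ?_
    exact fun p hp _ => (Finset.mem_filter.1 hp).2.one_lt.le

theorem exists_two_primes_large (n : ℕ) (n_large : 512 ≤ n) :
    ∃ p q : ℕ, p.Prime ∧ q.Prime ∧ p ≠ q ∧ n < p ∧ p ≤ 2 * n ∧ n < q ∧ q ≤ 2 * n := by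
  obtain ⟨q, hq, hnq, hq2⟩ := Nat.exists_prime_lt_and_le_two_mul n (by omega)
  by_contra hcon
  push Not at hcon
  have h1 : ∀ p : ℕ, p.Prime → n < p → p ≤ 2 * n → p = q := by
    intro p hp hnp hp2
    by_contra hpq
    have := hcon p q hp hq hpq hnp hp2 hnq
    omega
  have h2 := centralBinom_le_of_one_prime n (by omega) q hq hq2 hnq h1
  have h3 := Nat.four_pow_lt_mul_centralBinom n (by omega)
  have h4 := main_inequality_two n_large
  have h5 : n * n.centralBinom ≤ n * (2 * n * ((2 * n) ^ Nat.sqrt (2 * n) * 4 ^ (2 * n / 3))) :=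
    Nat.mul_le_mul_left n h2
  have h6 : n * (2 * n * ((2 * n) ^ Nat.sqrt (2 * n) * 4 ^ (2 * n / 3))) =
      n * (2 * n) * (2 * n) ^ Nat.sqrt (2 * n) * 4 ^ (2 * n / 3) := by ring
  omega

/-- for `n ≥ 6` there are two primes in `(n, 2n]`. -/
theorem exists_two_primes (n : ℕ) (hn : 6 ≤ n) :
    ∃ p q : ℕ, p.Prime ∧ q.Prime ∧ p ≠ q ∧ n < p ∧ p ≤ 2 * n ∧ n < q ∧ q ≤ 2 * n := by
  by_cases h : 512 ≤ n
  · exact exists_two_primes_large n h
  rcases lt_or_ge n 7 with h1 | h1
  · exact ⟨7, 11, by norm_num, by norm_num, by norm_num, by omega, by omega, by omega, by omega⟩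
  rcases lt_or_ge n 11 with h1 | h1
  · exact ⟨11, 13, by norm_num, by norm_num, by norm_num, by omega, by omega, by omega, by omega⟩
  rcases lt_or_ge n 17 with h1 | h1
  · exact ⟨17, 19, by norm_num, by norm_num, by norm_num, by omega, by omega, by omega, by omega⟩
  rcases lt_or_ge n 29 with h1 | h1
  · exact ⟨29, 31, by norm_num, by norm_num, by norm_num, by omega, by omega, by omega, by omega⟩
  rcases lt_or_ge n 41 with h1 | h1
  · exact ⟨41, 43, by norm_num, by norm_num, by norm_num, by omega, by omega, by omega, by omega⟩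
  rcases lt_or_ge n 71 with h1 | h1
  · exact ⟨71, 73, by norm_num, by norm_num, by norm_num, by omega, by omega, by omega, by omega⟩
  rcases lt_or_ge n 137 with h1 | h1
  · exact ⟨137, 139, by norm_num, by norm_num, by norm_num, by omega, by omega, by omega, by omega⟩
  rcases lt_or_ge n 269 with h1 | h1
  · exact ⟨269, 271, by norm_num, by norm_num, by norm_num, by omega, by omega, by omega, by omega⟩
  · exact ⟨521, 523, by norm_num, by norm_num, by norm_num, by omega, by omega, by omega, by omega⟩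

/-- for `n ≥ 11` there are two primes in `(n/2, n]`. -/
theorem exists_two_primes_half (n : ℕ) (hn : 11 ≤ n) :
    ∃ p q : ℕ, p.Prime ∧ q.Prime ∧ p ≠ q ∧ n < 2 * p ∧ p ≤ n ∧ n < 2 * q ∧ q ≤ n := by
  rcases Nat.lt_or_ge n 12 with h | h
  · exact ⟨7, 11, by norm_num, by norm_num, by norm_num, by omega, by omega, by omega, by omega⟩
  · obtain ⟨p, q, hp, hq, hpq, h1, h2, h3, h4⟩ := exists_two_primes (n / 2) (by omega)
    exact ⟨p, q, hp, hq, hpq, by omega, by omega, by omega, by omega⟩

end Cfsg.Agent.H57
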