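import Cfsg.Agent.H57.PqElem
import Cfsg.Agent.H57.TwoPrimes

set_option autoImplicit false

namespace Cfsg.Agent.H57

open Subgroup

theorem two_mul_card_alt (n : ℕ) (hn : 2 ≤ n) :
    2 * Nat.card ↥(alternatingGroup (Fin n)) = n.factorial := by
  have : Nontrivial (Fin n) := Fin.nontrivial_iff_two_le.2 hn
  have h := two_mul_card_alternatingGroup (α := Fin n)
  rw [Fintype.card_perm, Fintype.card_fin] at h
  rw [Nat.card_eq_fintype_card, h]

theorem prime_dvd_card_alt (n p : ℕ) (hn : 11 ≤ n) (hp : p.Prime) (h1 : n < 2 * p) (h2 : p ≤ n) :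
    p ∣ Nat.card ↥(alternatingGroup (Fin n)) ∧ ¬ p ^ 2 ∣ Nat.card ↥(alternatingGroup (Fin n)) := by
  have hc := two_mul_card_alt n (by omega)
  have hp2 : Nat.Coprime p 2 := (Nat.coprime_primes hp Nat.prime_two).2 (by omega)
  constructor
  · have h3 : p ∣ n.factorial := (hp.dvd_factorial).2 h2
    rw [← hc] at h3
    exact hp2.dvd_of_dvd_mul_left h3
  · intro h
    have h3 : p ^ 2 ∣ n.factorial := by rw [← hc]; exact h.mul_left 2
    have h4 : 2 ≤ (n.factorial).factorization p :=
      (hp.pow_dvd_iff_le_factorization (Nat.factorial_ne_zero n)).1 h3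
    have hlog : Nat.log p n < 2 := by
      apply Nat.log_lt_of_lt_pow (by omega)
      nlinarith
    rw [Nat.factorization_factorial hp hlog] at h4
    have h5 : n / p ^ 1 < 2 := by
      rw [pow_one]; exact Nat.div_lt_of_lt_mul (by omega)
    simp only [Nat.Ico_succ_singleton, Finset.sum_singleton] at h4
    omega

theorem not_dvd_sub_one (n p q : ℕ) (hn : 11 ≤ n) (hp : p.Prime) (hq : q.Prime) (h1 : n < 2 * p)
    (h3 : n < 2 * q) (h4 : q ≤ n) : ¬ p ∣ q - 1 := by
  rintro ⟨k, hk⟩
  have hk0 : k ≠ 0 := by rintro rfl; have := hq.one_lt; omega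
  have hk2 : k < 2 := by
    by_contra hk2
    have : p * 2 ≤ p * k := Nat.mul_le_mul_left p (by omega)
    omega
  have hk1 : k = 1 := by omega
  subst hk1
  have hp2 : p % 2 = 1 := (hp.eq_two_or_odd).resolve_left (by omega)
  have hq2 : q % 2 = 1 := (hq.eq_two_or_odd).resolve_left (by omega)
  omega

theorem simple_section_of_order_and_spectrum {G : Type*} [Group G] [Finite G] (n : ℕ) (hn : 11 ≤ n)
    (hcard : Nat.card G = Nat.card ↥(alternatingGroup (Fin n)))
    (hspec : Set.range (orderOf : G → ℕ) = Set.range (orderOf : ↥(alternatingGroup (Fin n)) → ℕ)) :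
    ∃ (N H : Subgroup G) (_ : N.Normal), H.Normal ∧ N < H ∧
      IsSimpleGroup (↥H ⧸ N.subgroupOf H) ∧ ¬ IsMulCommutative (↥H ⧸ N.subgroupOf H) ∧
      ∀ p : ℕ, p.Prime → n < 2 * p → p ≤ n → p ∣ Nat.card (↥H ⧸ N.subgroupOf H) := by
  have hno : ∀ p q : ℕ, p.Prime → q.Prime → p ≠ q → n < p + q → ∀ g : G, orderOf g ≠ p * q := by
    intro p q hp hq hpq h g hg
    have : p * q ∈ Set.range (orderOf : ↥(alternatingGroup (Fin n)) → ℕ) := by
      rw [← hspec, ← hg]; exact ⟨g, rfl⟩
    obtain ⟨σ, hσ⟩ := this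
    have := add_le_of_orderOf_alternating σ p q hp hq hpq hσ
    omega
  obtain ⟨p, q, hp, hq, hpq, hp1, hp2, hq1, hq2⟩ := exists_two_primes_half n hn
  have hdv : ∀ p : ℕ, p.Prime → n < 2 * p → p ≤ n → p ∣ Nat.card G ∧ ¬ p ^ 2 ∣ Nat.card G := by
    intro p hp h1 h2; rw [hcard]; exact prime_dvd_card_alt n p hn hp h1 h2
  obtain ⟨N, H, hN, hH, hNH, hsimple, hpN, hpHN⟩ := exists_simple_section (G := G) p hp (hdv p hp hp1 hp2).1
    (hdv p hp hp1 hp2).2
  have hcN : Nat.card (N.subgroupOf H) = Nat.card N :=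
    Nat.card_congr (Subgroup.subgroupOfEquivOfLe hNH.le).toEquiv
  have hmul : Nat.card H = Nat.card (↥H ⧸ N.subgroupOf H) * Nat.card N := by
    rw [← hcN]; exact Subgroup.card_eq_card_quotient_mul_card_subgroup _
  have hpH : p ∣ Nat.card H := by rw [hmul]; exact hpHN.mul_right _
  have hall : ∀ r : ℕ, r.Prime → n < 2 * r → r ≤ n → r ∣ Nat.card (↥H ⧸ N.subgroupOf H) := by
    intro r hr hr1 hr2
    by_cases hrp : r = p
    · rw [hrp]; exact hpHN
    by_contra hcon
    by_cases hrN : r ∣ Nat.card N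
    · obtain ⟨g, hg⟩ := exists_orderOf_mul_of_frattini r p hr hp hrp N hrN
        (fun h => (hdv r hr hr1 hr2).2 (h.trans (Subgroup.card_subgroup_dvd_card N))) hpN
        (hdv p hp hp1 hp2).1 (not_dvd_sub_one n p r hn hp hr hp1 hr1 hr2)
      exact hno p r hp hr (Ne.symm hrp) (by omega) g hg
    · have hrH : ¬ r ∣ Nat.card H := by
        rw [hmul]; intro h
        rcases hr.dvd_mul.1 h with h | h
        · exact hcon h
        · exact hrN h
      obtain ⟨g, hg⟩ := exists_orderOf_mul_of_frattini p r hp hr (Ne.symm hrp) H hpH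
        (fun h => (hdv p hp hp1 hp2).2 (h.trans (Subgroup.card_subgroup_dvd_card H))) hrH
        (hdv r hr hr1 hr2).1 (not_dvd_sub_one n r p hn hr hp hr1 hp1 hp2)
      exact hno r p hr hp hrp (by omega) g hg
  refine ⟨N, H, hN, hH, hNH, hsimple, ?_, hall⟩
  intro hcomm
  have hcg : ∀ a b : (↥H ⧸ N.subgroupOf H), a * b = b * a := fun a b => hcomm.is_comm.comm a b
  letI : CommGroup (↥H ⧸ N.subgroupOf H) := { (inferInstance : Group (↥H ⧸ N.subgroupOf H)) with
    mul_comm := hcg }
  have hprime : (Nat.card (↥H ⧸ N.subgroupOf H)).Prime := IsSimpleGroup.prime_card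
  have h1 := (Nat.prime_dvd_prime_iff_eq hp hprime).1 hpHN
  have h2 := (Nat.prime_dvd_prime_iff_eq hq hprime).1 (hall q hq hq1 hq2)
  exact hpq (h1.trans h2.symm)

theorem not_solvable_of_order_and_spectrum {G : Type*} [Group G] [Finite G] (n : ℕ) (hn : 5 ≤ n)
    (hcard : Nat.card G = Nat.card ↥(alternatingGroup (Fin n)))
    (hspec : Set.range (orderOf : G → ℕ) = Set.range (orderOf : ↥(alternatingGroup (Fin n)) → ℕ)) :
    ¬ Group.IsSolvable G := by
  intro hs
  by_cases hn11 : 11 ≤ n
  · obtain ⟨N, H, hN, hH, hNH, hsimple, hnc, -⟩ :=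
      simple_section_of_order_and_spectrum n hn11 hcard hspec
    have hsq : Group.IsSolvable (↥H ⧸ N.subgroupOf H) := inferInstance
    exact hnc ⟨⟨IsSimpleGroup.comm_iff_isSolvable.2 hsq⟩⟩
  · have hno : ∀ p q : ℕ, p.Prime → q.Prime → p ≠ q → n < p + q → ∀ g : G, orderOf g ≠ p * q := by
      intro p q hp hq hpq h g hg
      have : p * q ∈ Set.range (orderOf : ↥(alternatingGroup (Fin n)) → ℕ) := by
        rw [← hspec, ← hg]; exact ⟨g, rfl⟩
      obtain ⟨σ, hσ⟩ := this
      have := add_le_of_orderOf_alternating σ p q hp hq hpq hσ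
      omega
    have hc2 : 2 * Nat.card G = n.factorial := by rw [hcard]; exact two_mul_card_alt n (by omega)
    have hpow : ∀ (p i : ℕ), p.Prime → i ≤ (Nat.card G).factorization p → p ^ i ∣ Nat.card G := by
      intro p i hp hi
      exact (hp.pow_dvd_iff_le_factorization Nat.card_pos.ne').2 hi
    have key : ∀ (p q a b : ℕ), p.Prime → q.Prime → p ≠ q → n < p + q → p ∣ Nat.card G →
        q ∣ Nat.card G → ¬ p ^ (a + 1) ∣ Nat.card G → ¬ q ^ (b + 1) ∣ Nat.card G →
        (∀ i, 1 ≤ i → i ≤ a → ¬ q ∣ p ^ i - 1) → (∀ i, 1 ≤ i → i ≤ b → ¬ p ∣ q ^ i - 1) → False := by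
      intro p q a b hp hq hpq hpqn hpG hqG ha hb h1 h2
      obtain ⟨g, hg⟩ := exists_orderOf_mul_of_solvable (Nat.card G) le_rfl hs p q hp hq hpq hpG hqG
        (fun i hi1 hi2 => by
          by_cases hia : i ≤ a
          · exact h1 i hi1 hia
          · exact absurd ((pow_dvd_pow p (by omega : a + 1 ≤ i)).trans (hpow p i hp hi2)) ha)
        (fun i hi1 hi2 => by
          by_cases hib : i ≤ b
          · exact h2 i hi1 hib
          · exact absurd ((pow_dvd_pow q (by omega : b + 1 ≤ i)).trans (hpow q i hq hi2)) hb)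
      exact hno p q hp hq hpq hpqn g hg
    have hcases : n = 5 ∨ n = 6 ∨ n = 7 ∨ n = 8 ∨ n = 9 ∨ n = 10 := by omega
    rcases hcases with rfl | rfl | rfl | rfl | rfl | rfl
    · have hG : Nat.card G = 60 := by
        have : (5 : ℕ).factorial = 120 := rfl
        omega
      refine key 3 5 1 1 (by norm_num) (by norm_num) (by norm_num) (by norm_num) ?_ ?_ ?_ ?_ ?_ ?_
      · rw [hG]; norm_num
      · rw [hG]; norm_num
      · rw [hG]; norm_num
      · rw [hG]; norm_num
      · intro i h1 h2; interval_cases i; norm_num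
      · intro i h1 h2; interval_cases i; norm_num
    · have hG : Nat.card G = 360 := by
        have : (6 : ℕ).factorial = 720 := rfl
        omega
      refine key 3 5 2 1 (by norm_num) (by norm_num) (by norm_num) (by norm_num) ?_ ?_ ?_ ?_ ?_ ?_
      · rw [hG]; norm_num
      · rw [hG]; norm_num
      · rw [hG]; norm_num
      · rw [hG]; norm_num
      · intro i h1 h2; interval_cases i <;> norm_num
      · intro i h1 h2; interval_cases i; norm_num
    · have hG : Nat.card G = 2520 := by
        have : (7 : ℕ).factorial = 5040 := rfl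
        omega
      refine key 5 7 1 1 (by norm_num) (by norm_num) (by norm_num) (by norm_num) ?_ ?_ ?_ ?_ ?_ ?_
      · rw [hG]; norm_num
      · rw [hG]; norm_num
      · rw [hG]; norm_num
      · rw [hG]; norm_num
      · intro i h1 h2; interval_cases i; norm_num
      · intro i h1 h2; interval_cases i; norm_num
    · have hG : Nat.card G = 20160 := by
        have : (8 : ℕ).factorial = 40320 := rfl
        omega
      refine key 5 7 1 1 (by norm_num) (by norm_num) (by norm_num) (by norm_num) ?_ ?_ ?_ ?_ ?_ ?_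
      · rw [hG]; norm_num
      · rw [hG]; norm_num
      · rw [hG]; norm_num
      · rw [hG]; norm_num
      · intro i h1 h2; interval_cases i; norm_num
      · intro i h1 h2; interval_cases i; norm_num
    · have hG : Nat.card G = 181440 := by
        have : (9 : ℕ).factorial = 362880 := rfl
        omega
      refine key 5 7 1 1 (by norm_num) (by norm_num) (by norm_num) (by norm_num) ?_ ?_ ?_ ?_ ?_ ?_
      · rw [hG]; norm_num
      · rw [hG]; norm_num
      · rw [hG]; norm_num
      · rw [hG]; norm_num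
      · intro i h1 h2; interval_cases i; norm_num
      · intro i h1 h2; interval_cases i; norm_num
    · have hG : Nat.card G = 1814400 := by
        have : (10 : ℕ).factorial = 3628800 := rfl
        omega
      refine key 5 7 2 1 (by norm_num) (by norm_num) (by norm_num) (by norm_num) ?_ ?_ ?_ ?_ ?_ ?_
      · rw [hG]; norm_num
      · rw [hG]; norm_num
      · rw [hG]; norm_num
      · rw [hG]; norm_num
      · intro i h1 h2; interval_cases i <;> norm_num
      · intro i h1 h2; interval_cases i; norm_num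

end Cfsg.Agent.H57
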